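import Cfsg.Agent.Theta.Poisson

/-! The theta series of an even unimodular lattice of rank 24 is a modular form of weight 12 (helper16). -/

set_option autoImplicit false

namespace Cfsg.Agent.Theta

open Matrix Complex Real UpperHalfPlane ModularForm MatrixGroups EisensteinSeries

variable {n : ℕ} {B : Matrix (Fin n) (Fin n) ℤ}

theorem QF_cv (x : Fin n → ℤ) : QF (B.map Int.cast) (cv x) = (x ⬝ᵥ B *ᵥ x : ℤ) := by
  simp [QF, cv, dotProduct, mulVec]

theorem cv_mulVec (x : Fin n → ℤ) : cv (B *ᵥ x) = B.map Int.cast *ᵥ cv x := by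
  ext i; simp [cv, dotProduct, mulVec]

theorem pd_of_int (hs : B.IsSymm) (hp : ∀ x : Fin n → ℤ, x ≠ 0 → 0 < x ⬝ᵥ B *ᵥ x) (hd : B.det = 1) :
    PD (B.map Int.cast) := by
  set A : Matrix (Fin n) (Fin n) ℝ := B.map Int.cast with hA
  have sA : A.IsSymm := hs.map _
  have h0 : ∀ v, 0 ≤ QF A v := fun v => by
    refine (DenseRange.piMap fun _ : Fin n => Rat.denseRange_cast (𝕜 := ℝ)).induction_on v
      (isClosed_le continuous_const (by unfold QF; fun_prop)) fun q => ?_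
    obtain ⟨b, hb⟩ := IsLocalization.exist_integer_multiples_of_finite (nonZeroDivisors ℤ) q
    choose z hz using hb
    have e : cv z = ((b : ℤ) : ℝ) • Pi.map (fun _ => Rat.cast) q := funext fun i => by
      have := congrArg (Rat.cast (K := ℝ)) (hz i)
      simpa [cv] using this
    have h1 : 0 ≤ QF A (cv z) := by
      rw [QF_cv]
      rcases eq_or_ne z 0 with rfl | h
      · simp
      · exact_mod_cast (hp z h).le
    have b0 : ((b : ℤ) : ℝ) ≠ 0 := by exact_mod_cast nonZeroDivisors.coe_ne_zero b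
    rw [e, QF, mulVec_smul, dotProduct_smul, smul_dotProduct, smul_eq_mul, smul_eq_mul, ← mul_assoc] at h1
    exact nonneg_of_mul_nonneg_right h1 (mul_self_pos.2 b0) |> fun h => h
  refine ⟨sA, fun v hv => (h0 v).lt_of_ne fun e => hv ?_⟩
  have dA : A.det ≠ 0 := by rw [hA, ← Int.cast_det, hd]; simp
  refine eq_zero_of_mulVec_eq_zero dA (dotProduct_self_eq_zero.1 ?_)
  have hq : ∀ r : ℝ, 0 ≤ QF A (A *ᵥ v) * (r * r) + 2 * (A *ᵥ v ⬝ᵥ A *ᵥ v) * r + 0 := fun r => by
    have := h0 (v + r • A *ᵥ v)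
    have e2 : v ⬝ᵥ A *ᵥ A *ᵥ v = A *ᵥ v ⬝ᵥ A *ᵥ v := by
      rw [dotProduct_mulVec v, ← mulVec_transpose, sA.eq]
    simp only [QF, mulVec_add, mulVec_smul, dotProduct_add, add_dotProduct, dotProduct_smul, smul_dotProduct,
      smul_eq_mul, e2] at this e ⊢
    linarith
  have := discrim_le_zero hq
  rw [discrim] at this
  nlinarith

variable (B) in
noncomputable def tm (z : ℂ) (x : Fin n → ℤ) : ℂ := cexp (π * Complex.I * z * (x ⬝ᵥ B *ᵥ x : ℤ))

theorem tm_eq (z : ℂ) : tm B z = T1 (B.map Int.cast) (-Complex.I * z) 0 := funext fun x => by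
  rw [tm, T1, QF_cv]; congr 1; simp only [zero_dotProduct]; push_cast; ring

theorem norm_tm (z : ℂ) (x : Fin n → ℤ) : ‖tm B z x‖ = rexp (-(π * z.im) * (x ⬝ᵥ B *ᵥ x : ℤ)) := by
  rw [tm_eq, norm_T1, sub_zero, QF_cv]; simp

theorem sum_tm (h : PD (B.map Int.cast)) {z : ℂ} (hz : 0 < z.im) : Summable fun x => ‖tm B z x‖ := by
  rw [tm_eq]; exact h.sumT1 (by simpa using hz) 0

theorem tm_le (h : PD (B.map Int.cast)) {z w : ℂ} (hz : z.im ≤ w.im) (x : Fin n → ℤ) : ‖tm B w x‖ ≤ ‖tm B z x‖ := by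
  rw [norm_tm, norm_tm, Real.exp_le_exp, ← QF_cv]
  have : 0 ≤ QF (B.map Int.cast) (cv x) := by
    rcases eq_or_ne (cv x) 0 with e | e
    · simp [e, QF]
    · exact (h.pos _ e).le
  have := mul_nonneg (mul_nonneg pi_pos.le (sub_nonneg.2 hz)) this
  linarith

theorem theta_S {B : Matrix (Fin 24) (Fin 24) ℤ} (h : PD (B.map Int.cast)) (hd : B.det = 1) {z : ℂ} (hz : 0 < z.im) :
    ∑' x, tm B (-z⁻¹) x = z ^ 12 * ∑' x, tm B z x := by
  obtain ⟨C, hC⟩ := poisson 24 _ h
  have hu : IsUnit B := (isUnit_iff_isUnit_det B).2 (hd ▸ isUnit_one)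
  have key : ∀ z : ℂ, 0 < z.im → z ^ 12 * ∑' x, tm B z x = C * ∑' x, tm B (-z⁻¹) x := fun z hz => by
    have z0 : z ≠ 0 := by rintro rfl; simp at hz
    have e : ((-Complex.I * z) ^ (1 / 2 : ℂ)) ^ 24 = z ^ 12 := by
      rw [show 24 = 2 * 12 from rfl, pow_mul, one_div, cpow_ofNat_inv_pow, mul_pow, show 12 = 4 * 3 from rfl, pow_mul,
        Even.neg_pow (by decide), I_pow_four]
      simp
    rw [tm_eq, hC _ (by simpa using hz), e, ← mul_assoc, mul_div_cancel₀ _ (pow_ne_zero _ z0),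
      ← (Equiv.ofBijective _ ⟨mulVec_injective_of_isUnit hu, mulVec_surjective_iff_isUnit.2 hu⟩).tsum_eq]
    congr 1; refine tsum_congr fun x => ?_
    change T2 _ _ _ (B *ᵥ x) = _
    rw [T2, tm, sub_zero, cv_mulVec, h.inv_mul, QF_cv]
    congr 1; field_simp; push_cast; linear_combination (x ⬝ᵥ B *ᵥ x : ℤ) * I_sq
  have h1 := key Complex.I (by simp)
  have h2 : ∑' x, tm B Complex.I x ≠ 0 := by
    have e : ∀ x, tm B Complex.I x = (‖tm B Complex.I x‖ : ℝ) := fun x => by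
      rw [norm_tm, tm, ofReal_exp]; congr 1; simp; linear_combination (π * (x ⬝ᵥ B *ᵥ x : ℤ)) * I_sq
    rw [tsum_congr e, ← ofReal_tsum, ofReal_ne_zero]
    exact ((sum_tm h (by simp)).tsum_pos (fun _ => norm_nonneg _) 0 (by rw [norm_tm]; exact Real.exp_pos _)).ne'
  rw [inv_I, neg_neg, show 12 = 4 * 3 from rfl, pow_mul, I_pow_four, one_pow, mul_left_inj' h2] at h1
  rw [key z hz, ← h1, one_mul]

theorem theta_T (he : ∀ x : Fin n → ℤ, (2 : ℤ) ∣ x ⬝ᵥ B *ᵥ x) (z : ℂ) : tm B (1 + z) = tm B z := funext fun x => by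
  obtain ⟨k, hk⟩ := he x
  rw [tm, tm, hk]
  exact Complex.exp_eq_exp_iff_exists_int.2 ⟨k, by push_cast; ring⟩

set_option backward.isDefEq.respectTransparency.types false in
/-- The theta series as a modular form. -/
noncomputable def theta {B : Matrix (Fin 24) (Fin 24) ℤ} (h : PD (B.map Int.cast)) (hd : B.det = 1)
    (he : ∀ x : Fin 24 → ℤ, (2 : ℤ) ∣ x ⬝ᵥ B *ᵥ x) : ModularForm 𝒮ℒ 12 :=
  have inv : ∀ γ : SL(2, ℤ), (fun τ : ℍ => ∑' x, tm B τ x) ∣[(12 : ℤ)] γ = fun τ : ℍ => ∑' x, tm B τ x :=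
    SlashInvariantForm.slash_action_generators_SL2Z
      (by
        ext z
        rw [SL_slash_apply, UpperHalfPlane.modular_S_smul]
        simp [denom, ModularGroup.S, theta_S h hd z.2]
        field_simp [z.ne_zero])
      (by
        ext z
        rw [SL_slash_apply, denom, modular_T_smul, ModularGroup.T]
        simp [theta_T he])
  { toFun := fun τ => ∑' x, tm B τ x
    slash_action_eq' := by rintro _ ⟨γ, rfl⟩; exact inv γ
    holo' := by
      rw [UpperHalfPlane.mdifferentiable_iff]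
      refine DifferentiableOn.congr (f := fun z => ∑' x, tm B z x) (fun z hz => ?_) fun z hz => by
        simp [ofComplex_apply_of_im_pos hz]
      have hU : IsOpen {w : ℂ | (z / 2).im < w.im} := isOpen_lt continuous_const continuous_im
      have hz' : 0 < z.im := hz
      refine ((differentiableOn_tsum_of_summable_norm (sum_tm h (z := z / 2) (by simpa using hz'))
        (fun x => by unfold tm; fun_prop) hU fun x w hw => tm_le h (le_of_lt hw) x).differentiableAt
        (hU.mem_nhds (by simpa using hz'))).differentiableWithinAt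
    bdd_at_cusps' := fun hc => by
      rw [Subgroup.IsArithmetic.isCusp_iff_isCusp_SL2Z] at hc
      rw [OnePoint.isBoundedAt_iff_forall_SL2Z hc]
      intro γ _
      rw [inv, isBoundedAtImInfty_iff]
      exact ⟨∑' x, ‖tm B Complex.I x‖, 1, fun z hz => tsum_of_norm_bounded (sum_tm h (by simp)).hasSum fun x =>
        tm_le h (by simpa using hz) x⟩ }

theorem theta_coeff {B : Matrix (Fin 24) (Fin 24) ℤ} (h : PD (B.map Int.cast)) (hd : B.det = 1)
    (he : ∀ x : Fin 24 → ℤ, (2 : ℤ) ∣ x ⬝ᵥ B *ᵥ x) (m : ℕ) :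
    (qExpansion 1 (theta h hd he)).coeff m = ({x : Fin 24 → ℤ | x ⬝ᵥ B *ᵥ x = 2 * m}.ncard : ℂ) := by
  refine (ModularFormClass.qExpansion_coeff_unique (c := fun m => ({x : Fin 24 → ℤ | x ⬝ᵥ B *ᵥ x = 2 * m}.ncard : ℂ))
    one_pos one_mem_strictPeriods_SL (fun τ => ?_) m).symm
  set f : (Fin 24 → ℤ) → ℕ := fun x => (x ⬝ᵥ B *ᵥ x / 2).toNat with hf
  have hfm : ∀ x m, f x = m ↔ x ⬝ᵥ B *ᵥ x = 2 * (m : ℕ) := fun x m => by
    obtain ⟨k, hk⟩ := he x
    have : (0 : ℝ) ≤ (x ⬝ᵥ B *ᵥ x : ℤ) := by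
      rw [← QF_cv]
      rcases eq_or_ne (cv x) 0 with e | e
      · simp [e, QF]
      · exact (h.pos _ e).le
    have : 0 ≤ x ⬝ᵥ B *ᵥ x := by exact_mod_cast this
    simp only [hf]; omega
  have hs := (sum_tm h τ.2).of_norm
  refine ((Equiv.sigmaFiberEquiv f).hasSum_iff.2 hs.hasSum).sigma fun m => ?_
  have e : ∀ x : {a // f a = m}, tm B τ x = Function.Periodic.qParam 1 τ ^ m := fun x => by
    rw [tm, (hfm _ _).1 x.2, Function.Periodic.qParam, ← Complex.exp_nat_mul]; congr 1; push_cast; ring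
  have hfin : Finite {a // f a = m} := by
    have : Summable fun _ : {a // f a = m} => Function.Periodic.qParam 1 τ ^ m := (hs.subtype {a | f a = m}).congr e
    rcases (finite_or_infinite {a // f a = m}) with k | k
    · exact k
    · exact absurd ((summable_const_iff _).1 this) (pow_ne_zero _ (Complex.exp_ne_zero _))
  have := Fintype.ofFinite {a // f a = m}
  refine (congrArg (HasSum _) ?_).mp (hasSum_fintype fun x : {a // f a = m} => tm B τ x)
  simp only [e, Finset.sum_const, Finset.card_univ, nsmul_eq_mul, smul_eq_mul, ← Nat.card_eq_fintype_card, hfm]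
  rfl

theorem theta_eq {B : Matrix (Fin 24) (Fin 24) ℤ} (h : PD (B.map Int.cast)) (hd : B.det = 1)
    (he : ∀ x : Fin 24 → ℤ, (2 : ℤ) ∣ x ⬝ᵥ B *ᵥ x) (hp : ∀ x : Fin 24 → ℤ, x ≠ 0 → 0 < x ⬝ᵥ B *ᵥ x)
    (h2 : ∀ x : Fin 24 → ℤ, x ⬝ᵥ B *ᵥ x ≠ 2) : qExpansion 1 (theta h hd he) =
      (7 / 12 : ℂ) • (qExpansion 1 E₄ * qExpansion 1 E₄ * qExpansion 1 E₄) +
        (5 / 12 : ℂ) • (qExpansion 1 E₆ * qExpansion 1 E₆) := by
  set g : ModularForm 𝒮ℒ 12 := theta h hd he - ((7 / 12 : ℂ) • ModularForm.mcast (by decide) (E₄.pow 3) +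
    (5 / 12 : ℂ) • ModularForm.mcast (by decide) (E₆.pow 2)) with hg
  have e : qExpansion 1 g = qExpansion 1 (theta h hd he) - ((7 / 12 : ℂ) • (qExpansion 1 E₄ * qExpansion 1 E₄ *
      qExpansion 1 E₄) + (5 / 12 : ℂ) • (qExpansion 1 E₆ * qExpansion 1 E₆)) := by
    rw [hg, FunLike.coe_sub, ModularForm.qExpansion_sub one_pos one_mem_strictPeriods_SL, FunLike.coe_add,
      ModularForm.qExpansion_add one_pos one_mem_strictPeriods_SL, FunLike.coe_smul, FunLike.coe_smul,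
      ModularForm.qExpansion_smul one_pos one_mem_strictPeriods_SL,
      ModularForm.qExpansion_smul one_pos one_mem_strictPeriods_SL]
    simp only [coe_mcast, ModularForm.qExpansion_pow one_pos one_mem_strictPeriods_SL]
    ring
  have z : g = 0 := sturm_bound_levelOne (lt_of_lt_of_le (b := ((2 : ℕ) : ℕ∞)) (by decide)
    (PowerSeries.nat_le_order _ _ fun i hi => by
      rw [e, map_sub, theta_coeff]
      interval_cases i
      · have : {x : Fin 24 → ℤ | x ⬝ᵥ B *ᵥ x = 2 * (0 : ℕ)} = {0} := by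
          ext x; by_cases hx : x = 0
          · simp [hx]
          · simpa [hx] using (hp x hx).ne'
        rw [this]
        norm_num [PowerSeries.coeff_mul, -PowerSeries.coeff_zero_eq_constantCoeff, E_qExpansion_coeff_zero _ ⟨2, rfl⟩,
          E_qExpansion_coeff_zero _ ⟨3, rfl⟩]
      · have : {x : Fin 24 → ℤ | x ⬝ᵥ B *ᵥ x = 2 * (1 : ℕ)} = ∅ := by ext x; simpa using h2 x
        rw [this]
        norm_num [PowerSeries.coeff_mul, Finset.Nat.antidiagonal_succ, E₄_qExpansion_coeff_one,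
          E₆_qExpansion_coeff_one, E_qExpansion_coeff_zero _ ⟨2, rfl⟩, E_qExpansion_coeff_zero _ ⟨3, rfl⟩]))
  rw [z] at e
  rw [← sub_eq_zero, ← e]; exact qExpansion_zero 1

end Cfsg.Agent.Theta
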