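import Mathlib

/-! Poisson summation for Gaussians of positive definite forms on `ℤ ^ n` (helper16). -/

set_option autoImplicit false

namespace Cfsg.Agent.Theta

open Matrix Complex Real

variable {n : ℕ}

def QF (A : Matrix (Fin n) (Fin n) ℝ) (v : Fin n → ℝ) : ℝ := v ⬝ᵥ A *ᵥ v

def cv (x : Fin n → ℤ) : Fin n → ℝ := fun i => x i

structure PD (A : Matrix (Fin n) (Fin n) ℝ) : Prop where
  symm : A.IsSymm
  pos : ∀ v, v ≠ 0 → 0 < QF A v

theorem PD.unit {A : Matrix (Fin n) (Fin n) ℝ} (h : PD A) : IsUnit A.det := by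
  rw [← isUnit_iff_isUnit_det, ← mulVec_injective_iff_isUnit]
  intro v w e
  by_contra hne
  have := h.pos _ (sub_ne_zero.2 hne)
  rw [QF, mulVec_sub, e, sub_self, dotProduct_zero] at this
  exact lt_irrefl _ this

theorem PD.inv_mul {A : Matrix (Fin n) (Fin n) ℝ} (h : PD A) (v : Fin n → ℝ) : QF A⁻¹ (A *ᵥ v) = QF A v := by
  rw [QF, QF, mulVec_mulVec, nonsing_inv_mul _ h.unit, one_mulVec, dotProduct_comm]

theorem PD.surj {A : Matrix (Fin n) (Fin n) ℝ} (h : PD A) (z : Fin n → ℝ) : ∃ v, A *ᵥ v = z :=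
  ⟨A⁻¹ *ᵥ z, by rw [mulVec_mulVec, mul_nonsing_inv _ h.unit, one_mulVec]⟩

theorem PD.inv {A : Matrix (Fin n) (Fin n) ℝ} (h : PD A) : PD A⁻¹ :=
  ⟨h.symm.inv, fun z hz => by
    obtain ⟨v, rfl⟩ := h.surj z
    rw [h.inv_mul]; exact h.pos v (by rintro rfl; simp at hz)⟩

theorem PD.lower {A : Matrix (Fin n) (Fin n) ℝ} (h : PD A) : ∃ e : ℝ, 0 < e ∧ ∀ v, e * ∑ i, v i ^ 2 ≤ QF A v := by
  have hc : Continuous (QF A) := by unfold QF; fun_prop
  have sc : ∀ (r : ℝ) v, QF A (r • v) = r ^ 2 * QF A v := fun r v => by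
    simp [QF, mulVec_smul]; ring
  rcases (Metric.sphere (0 : Fin n → ℝ) 1).eq_empty_or_nonempty with he | he
  · refine ⟨1, one_pos, fun v => ?_⟩
    obtain rfl : v = 0 := by
      by_contra hv
      have : ‖v‖⁻¹ • v ∈ Metric.sphere (0 : Fin n → ℝ) 1 := by simp [norm_smul, hv]
      simp [he] at this
    simp [QF]
  obtain ⟨w, hw, hm⟩ := (isCompact_sphere (0 : Fin n → ℝ) 1).exists_isMinOn he hc.continuousOn
  have hw0 := h.pos w (by rintro rfl; simp at hw)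
  refine ⟨QF A w / (n + 1), by positivity, fun v => ?_⟩
  rcases eq_or_ne v 0 with rfl | hv
  · simp [QF]
  have h1 : QF A w ≤ QF A (‖v‖⁻¹ • v) := hm (by simp [norm_smul, hv])
  have h2 : ∑ i, v i ^ 2 ≤ (n + 1) * ‖v‖ ^ 2 := by
    calc _ ≤ ∑ _i : Fin n, ‖v‖ ^ 2 := Finset.sum_le_sum fun i _ => by
          rw [← sq_abs]; exact pow_le_pow_left₀ (abs_nonneg _) (norm_le_pi_norm v i) 2
      _ ≤ _ := by simp; nlinarith [sq_nonneg ‖v‖]
  have hn : 0 < ‖v‖ := norm_pos_iff.2 hv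
  rw [sc, inv_pow, le_inv_mul_iff₀ (by positivity)] at h1
  calc _ ≤ QF A w / (n + 1) * ((n + 1) * ‖v‖ ^ 2) := by gcongr
    _ = ‖v‖ ^ 2 * QF A w := by field_simp
    _ ≤ _ := h1

theorem summ1 {r : ℝ} (hr : 0 < r) (c : ℝ) : Summable fun k : ℤ => rexp (-r * (k - c) ^ 2) := by
  have := ((summable_jacobiTheta₂_term_iff (I * (-r * c / π : ℝ)) (I * (r / π : ℝ))).2
    (by simp only [mul_im, I_re, I_im, ofReal_re, ofReal_im]; have := pi_pos; positivity)).norm.mul_left (rexp (-r * c ^ 2))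
  refine this.congr fun k => ?_
  rw [norm_jacobiTheta₂_term, ← Real.exp_add]
  simp only [mul_im, I_re, I_im, ofReal_re, ofReal_im]
  congr 1; field_simp; ring

theorem summP {r : ℝ} (hr : 0 < r) : ∀ (n : ℕ) (c : Fin n → ℝ),
    Summable fun x : Fin n → ℤ => rexp (-r * ∑ i, (x i - c i) ^ 2)
  | 0, _ => .of_finite
  | n + 1, c => by
    rw [← (Fin.consEquiv fun _ => ℤ).summable_iff]
    refine ((summ1 hr (c 0)).mul_of_nonneg (summP hr n (Fin.tail c)) (fun _ => (Real.exp_pos _).le)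
      (fun _ => (Real.exp_pos _).le)).congr fun x => ?_
    simp [Fin.sum_univ_succ, ← Real.exp_add, Fin.consEquiv, Fin.tail]; ring

theorem PD.summ {A : Matrix (Fin n) (Fin n) ℝ} (h : PD A) {s : ℝ} (hs : 0 < s) (c : Fin n → ℝ) :
    Summable fun x : Fin n → ℤ => rexp (-s * QF A (cv x - c)) := by
  obtain ⟨e, he, hl⟩ := h.lower
  refine (summP (mul_pos hs he) n c).of_nonneg_of_le (fun _ => (Real.exp_pos _).le) fun x => Real.exp_le_exp.2 ?_
  have := hl (cv x - c)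
  simp only [cv, Pi.sub_apply] at this ⊢
  nlinarith

noncomputable def T1 (A : Matrix (Fin n) (Fin n) ℝ) (t : ℂ) (c : Fin n → ℝ) (x : Fin n → ℤ) : ℂ :=
  cexp (-π * t * (QF A (cv x) : ℝ) + 2 * π * I * (c ⬝ᵥ cv x : ℝ))

noncomputable def T2 (A : Matrix (Fin n) (Fin n) ℝ) (t : ℂ) (c : Fin n → ℝ) (x : Fin n → ℤ) : ℂ :=
  cexp (-π / t * (QF A (cv x - c) : ℝ))

theorem norm_T1 (A : Matrix (Fin n) (Fin n) ℝ) (t : ℂ) (c : Fin n → ℝ) (x : Fin n → ℤ) :
    ‖T1 A t c x‖ = rexp (-(π * t.re) * QF A (cv x - 0)) := by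
  rw [T1, Complex.norm_exp]; simp

theorem norm_gauss (t : ℂ) (q : ℝ) : ‖cexp (-π / t * q)‖ = rexp (-(π * t⁻¹.re) * q) := by
  rw [Complex.norm_exp, div_eq_mul_inv]; simp [-inv_re]

theorem re_inv_pos {t : ℂ} (ht : 0 < t.re) : 0 < t⁻¹.re := by
  rw [inv_re]; exact div_pos ht (normSq_pos.2 (by rintro rfl; simp at ht))

theorem PD.sumT1 {A : Matrix (Fin n) (Fin n) ℝ} (h : PD A) {t : ℂ} (ht : 0 < t.re) (c : Fin n → ℝ) :
    Summable fun x => ‖T1 A t c x‖ := by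
  simp only [norm_T1]; exact h.summ (mul_pos pi_pos ht) 0

theorem PD.sumT2 {A : Matrix (Fin n) (Fin n) ℝ} (h : PD A) {t : ℂ} (ht : 0 < t.re) (c : Fin n → ℝ) :
    Summable (T2 A t c) := by
  refine .of_norm ?_
  simp only [T2, norm_gauss]; exact h.summ (mul_pos pi_pos (re_inv_pos ht)) c

/-- Schur complement. -/
theorem PD.schur {A : Matrix (Fin (n + 1)) (Fin (n + 1)) ℝ} (h : PD A) : ∃ (a : ℝ) (u : Fin n → ℝ)
    (S : Matrix (Fin n) (Fin n) ℝ), 0 < a ∧ PD S ∧ (∀ x0 x, QF A (Fin.cons x0 x) = a * (x0 + u ⬝ᵥ x) ^ 2 + QF S x) ∧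
      ∀ z0 z, QF A⁻¹ (Fin.cons z0 z) = z0 ^ 2 / a + QF S⁻¹ (z - z0 • u) := by
  have ha : 0 < A 0 0 := by simpa [QF] using h.pos (Pi.single 0 1) (by simp)
  have sy : ∀ i j, A j i = A i j := h.symm.apply
  set u : Fin n → ℝ := fun j => A 0 j.succ / A 0 0 with hu
  set S : Matrix (Fin n) (Fin n) ℝ := of fun i j => A i.succ j.succ - A 0 0 * u i * u j with hS
  have hA : ∀ (x0 : ℝ) (x : Fin n → ℝ), A *ᵥ Fin.cons x0 x =
      Fin.cons (A 0 0 * (x0 + u ⬝ᵥ x)) ((A 0 0 * (x0 + u ⬝ᵥ x)) • u + S *ᵥ x) := fun x0 x => by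
    ext i
    refine Fin.cases ?_ (fun i => ?_) i
    · simp only [mulVec, dotProduct, Fin.sum_univ_succ, Fin.cons_zero, Fin.cons_succ, mul_add, Finset.mul_sum, hu]
      congr 1; refine Finset.sum_congr rfl fun j _ => ?_; field_simp
    · simp only [mulVec, dotProduct, Fin.sum_univ_succ, Fin.cons_zero, Fin.cons_succ, mul_add, Finset.mul_sum, hS,
        Pi.add_apply, Pi.smul_apply, smul_eq_mul, add_mul, Finset.sum_mul, of_apply, add_assoc,
        ← Finset.sum_add_distrib]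
      congr 1
      · rw [hu, sy 0]; field_simp
      · refine Finset.sum_congr rfl fun j _ => ?_; ring
  have hQ : ∀ x0 x, QF A (Fin.cons x0 x) = A 0 0 * (x0 + u ⬝ᵥ x) ^ 2 + QF S x := fun x0 x => by
    rw [QF, hA, QF, dotProduct, Fin.sum_univ_succ]
    simp only [Fin.cons_zero, Fin.cons_succ]
    rw [← dotProduct, dotProduct_add, dotProduct_smul, dotProduct_comm x u, smul_eq_mul]; ring
  have pS : PD S := ⟨IsSymm.ext fun i j => by simp only [hS, of_apply, sy i.succ]; ring, fun x hx => by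
    have := h.pos (Fin.cons (-(u ⬝ᵥ x)) x) fun e => hx (funext fun i => by simpa using congrFun e i.succ)
    rw [hQ] at this; simpa using this⟩
  refine ⟨A 0 0, u, S, ha, pS, hQ, fun z0 z => ?_⟩
  obtain ⟨v, hv⟩ := h.surj (Fin.cons z0 z)
  rw [← hv, h.inv_mul, ← Fin.cons_self_tail v, hQ]
  rw [← Fin.cons_self_tail v, hA, Fin.cons_inj] at hv
  rw [← hv.2, ← hv.1, add_sub_cancel_left, pS.inv_mul]; field_simp

theorem cv_cons (k : ℤ) (x : Fin n → ℤ) : cv (Fin.cons k x : Fin (n + 1) → ℤ) = Fin.cons (k : ℝ) (cv x) := by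
  ext i; refine Fin.cases ?_ (fun i => ?_) i <;> simp [cv]

theorem poisson : ∀ (n : ℕ) (A : Matrix (Fin n) (Fin n) ℝ), PD A → ∃ C : ℂ, ∀ t : ℂ, 0 < t.re → ∀ c,
    ∑' x, T1 A t c x = C / (t ^ (1 / 2 : ℂ)) ^ n * ∑' y, T2 A⁻¹ t c y
  | 0, A, _ => ⟨1, fun t _ c => by simp [T1, T2, QF]⟩
  | n + 1, A, h => by
    obtain ⟨a, u, S, ha, pS, hQ, hD⟩ := h.schur
    obtain ⟨C, hC⟩ := poisson n S pS
    refine ⟨C / (a : ℂ) ^ (1 / 2 : ℂ), fun t ht c => ?_⟩
    have t0 : t ≠ 0 := by rintro rfl; simp at ht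
    have a0 : (a : ℂ) ≠ 0 := by exact_mod_cast ha.ne'
    have hat : 0 < (a * t).re := by simpa using mul_pos ha ht
    have sq : ((a : ℂ) * t) ^ (1 / 2 : ℂ) = (a : ℂ) ^ (1 / 2 : ℂ) * t ^ (1 / 2 : ℂ) := by
      rw [cpow_def_of_ne_zero (mul_ne_zero a0 t0), cpow_def_of_ne_zero a0, cpow_def_of_ne_zero t0,
        log_ofReal_mul ha t0, ofReal_log ha.le, add_mul, Complex.exp_add]
    set G : ℤ → ℂ := fun k => cexp (-π / (a * t) * ((k - c 0) ^ 2 : ℝ)) with hG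
    set d : ℤ → Fin n → ℝ := fun k => Fin.tail c + (k - c 0) • u with hd
    have s1 := (Fin.consEquiv fun _ => ℤ).summable_iff.2 (h.sumT1 ht c).of_norm
    have s2 := (Fin.consEquiv fun _ => ℤ).summable_iff.2 (h.inv.sumT2 ht c)
    rw [← (Fin.consEquiv fun _ => ℤ).tsum_eq, ← (Fin.consEquiv fun _ => ℤ).tsum_eq (T2 _ _ _)]
    erw [s1.tsum_prod, s2.tsum_prod, ← Summable.tsum_comm (f := fun k x => T1 A t c (Fin.cons k x)) s1]
    have e1 : ∀ x : Fin n → ℤ, ∑' k : ℤ, T1 A t c (Fin.cons k x) =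
        1 / (a * t) ^ (1 / 2 : ℂ) * ∑' k : ℤ, G k * T1 S t (d k) x := fun x => by
      have := Complex.tsum_exp_neg_quadratic hat (-(a * t) * (u ⬝ᵥ cv x : ℝ) + I * c 0)
      set E := cexp (-π * t * (a * (u ⬝ᵥ cv x : ℝ) ^ 2 + (QF S (cv x) : ℝ)) + 2 * π * I * (Fin.tail c ⬝ᵥ cv x : ℝ))
      calc _ = ∑' k : ℤ, cexp (-π * (a * t) * k ^ 2 + 2 * π * (-(a * t) * (u ⬝ᵥ cv x : ℝ) + I * c 0) * k) * E := by
            refine tsum_congr fun k => ?_
            have : c ⬝ᵥ Fin.cons (k : ℝ) (cv x) = c 0 * k + Fin.tail c ⬝ᵥ cv x := by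
              simp [dotProduct, Fin.sum_univ_succ, Fin.tail]
            rw [T1, cv_cons, hQ, ← Complex.exp_add, this]
            congr 1; push_cast; ring
        _ = _ := by
            rw [tsum_mul_right, this, mul_assoc, ← tsum_mul_right]
            congr 1; refine tsum_congr fun k => ?_
            rw [hG, hd, T1, ← Complex.exp_add, ← Complex.exp_add, add_dotProduct, smul_dotProduct, smul_eq_mul]
            congr 1; push_cast; field_simp
            linear_combination (-(a * t * (u ⬝ᵥ cv x : ℝ)) ^ 2 - (c 0) ^ 2 * (I ^ 2 - 1) - 2 * k * c 0 +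
              2 * I * a * t * (u ⬝ᵥ cv x : ℝ) * c 0) * I_sq
    have s3 : Summable (Function.uncurry fun (k : ℤ) (x : Fin n → ℤ) => G k * T1 S t (d k) x) := by
      refine .of_norm (((summ1 (mul_pos pi_pos (re_inv_pos hat)) (c 0)).mul_of_nonneg (pS.sumT1 ht 0)
        (fun _ => (Real.exp_pos _).le) (fun _ => norm_nonneg _)).congr fun p => ?_)
      simp only [Function.uncurry, norm_mul, norm_T1, hG, norm_gauss]
    simp only [e1]
    rw [tsum_mul_left, s3.tsum_comm]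
    simp only [tsum_mul_left, hC t ht]
    have e2 : ∀ k : ℤ, ∑' y : Fin n → ℤ, (T2 A⁻¹ t c ∘ Fin.consEquiv fun _ => ℤ) (k, y) =
        G k * ∑' y, T2 S⁻¹ t (d k) y := fun k => by
      rw [← tsum_mul_left]; refine tsum_congr fun y => ?_
      change T2 _ _ _ (Fin.cons k y) = _
      have : cv (Fin.cons k y : Fin (n + 1) → ℤ) - c = Fin.cons (k - c 0) (cv y - Fin.tail c) := by
        ext i; refine Fin.cases ?_ (fun i => ?_) i <;> simp [cv, Fin.tail]
      rw [T2, this, hD, hG, hd, T2, ← Complex.exp_add, sub_sub]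
      congr 1; push_cast; field_simp; ring
    simp only [e2, mul_left_comm (G _), tsum_mul_left]
    rw [sq, pow_succ]; ring

end Cfsg.Agent.Theta
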